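import Cfsg.Agent.Lib.Chev.Tab.G2e
import Cfsg.Agent.Lib.Chev.Tab.B2e
import Cfsg.Agent.Lib.Chev.Tab.D4e
import Cfsg.Agent.Lib.Chev.Tab.F4e
import Cfsg.Agent.Lib.Chev.Tab.E6e
import Cfsg.Agent.Lib.Chev.Tab.E7e
import Cfsg.Agent.Lib.Chev.Tab.E8e
import Cfsg.Prelude.Def_ChevB2

/-! The fifth batch of table facts for all the tabulated types. -/

set_option autoImplicit false

namespace Cfsg.Agent.Lib.Chev

open Cfsg Cfsg.Lie

/-- The fifth batch of table facts holds for all the tabulated data, with the Coxeter matrix. -/
theorem good5_of_mem {D : ChevalleyDatum}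
    (hD : D ∈ [chevG2, chevB2, chevD4, chevF4, chevE6, chevE7, chevE8]) :
    ∃ (G : Good5 D) (M : CoxeterMatrix (Fin D.rank)), ∀ i j : Fin D.rank, G.cm i j = M i j := by
  simp only [List.mem_cons, List.not_mem_nil, or_false] at hD
  rcases hD with rfl | rfl | rfl | rfl | rfl | rfl | rfl
  · exact ⟨TabG2.good5, CoxeterMatrix.G₂, by set_option backward.isDefEq.respectTransparency false in decide +kernel⟩
  · exact ⟨TabB2.good5, CoxeterMatrix.B 2, by set_option backward.isDefEq.respectTransparency false in decide +kernel⟩
  · exact ⟨TabD4.good5, Cfsg.Lie.coxeterD4, by set_option backward.isDefEq.respectTransparency false in decide +kernel⟩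
  · exact ⟨TabF4.good5, CoxeterMatrix.F₄, by set_option backward.isDefEq.respectTransparency false in decide +kernel⟩
  · exact ⟨TabE6.good5, CoxeterMatrix.E₆, by set_option backward.isDefEq.respectTransparency false in decide +kernel⟩
  · exact ⟨TabE7.good5, CoxeterMatrix.E₇, by set_option backward.isDefEq.respectTransparency false in decide +kernel⟩
  · exact ⟨TabE8.good5, CoxeterMatrix.E₈, by set_option backward.isDefEq.respectTransparency false in decide +kernel⟩

end Cfsg.Agent.Lib.Chev
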