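import Cfsg.Agent.Lib.Chev.Exc1
import Cfsg.Agent.Lib.Chev.All5
import Cfsg.Agent.Lib.Chev.All3
import Cfsg.Agent.Lib.Chev.Perf

/-!
The exceptional automorphisms of the Chevalley groups of types B₂, F₄, G₂.
-/

set_option autoImplicit false
set_option linter.unusedSimpArgs false
set_option linter.unusedVariables false
set_option linter.unusedSectionVars false

namespace Cfsg.Agent.Lib.Chev

open Cfsg Cfsg.Lie

variable {K : Type*} [Field K]

/-- Perfect fields of characteristic `p`: all `λ`-th powers. -/
theorem exc_perf {D : ChevalleyDatum} {p : ℕ} (E : ExcData D p) (hperf : ∀ x : K, ∃ y : K, y ^ p = x) (r : ℕ) (hr : r < D.nroots)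
    (v : K) : ∃ t : K, t ^ E.lam r = v := by
  rcases E.lam_cases hr with h | h
  · exact ⟨v, by rw [h, pow_one]⟩
  · rw [h]
    exact hperf v

/-- The exceptional automorphism of `B₂` in characteristic 2. -/
theorem exc_B2 [CharP K 2] (hperf : ∀ x : K, ∃ y : K, y ^ 2 = x) :
    ∃ α : ↥(chevB2.group K) ≃* ↥(chevB2.group K), ∀ {r : ℕ} {t : K} {g : ↥(chevB2.group K)}, r < chevB2.nroots →
      ((g : GL chevB2.Idx K) : Matrix chevB2.Idx chevB2.Idx K) = chevB2.x K r t →
      ((α g : GL chevB2.Idx K) : Matrix chevB2.Idx chevB2.Idx K) = chevB2.x K (TabB2.exc.ρ r) (t ^ TabB2.exc.lam r) := by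
  haveI : Fact (Nat.Prime 2) := ⟨Nat.prime_two⟩
  have hM : ∀ i j : Fin chevB2.rank, TabB2.good5.cm i j = (CoxeterMatrix.B 2) i j := by
    set_option backward.isDefEq.respectTransparency false in decide +kernel
  have hc := center_B2 (K := K)
  set α0 := TabB2.good5.excHom TabB2.exc (CoxeterMatrix.B 2) hM hc with hα0
  have hs : Function.Surjective α0 := TabB2.good5.excHom_surj TabB2.exc _ hM hc (exc_perf TabB2.exc hperf)
  have hb : Function.Bijective α0 := by
    by_cases hK : ∃ a : K, a ≠ 0 ∧ a ≠ 1
    · have hS : IsSimpleGroup ↥(chevB2.group K) :=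
        (simple_of_perfect TabB2.good3 (perfect_of_mem (D := chevB2) (by simp) (fun _ => hK))).1
      exact bijective_of_simple α0 hs
    · -- the field has two elements
      push Not at hK
      have hF : Finite K := by
        refine Finite.of_surjective (fun b : Bool => if b then (1 : K) else 0) ?_
        intro a
        by_cases ha : a = 0
        · exact ⟨false, by simp [ha]⟩
        · exact ⟨true, by simp [hK a ha]⟩
      haveI : Fintype K := Fintype.ofFinite K
      haveI : DecidableEq K := Classical.decEq K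
      haveI : Finite ↥(chevB2.group K) := inferInstance
      exact ⟨Finite.injective_iff_surjective.mpr hs, hs⟩
  refine ⟨MulEquiv.ofBijective α0 hb, ?_⟩
  intro r t g hr hg
  exact TabB2.good5.excHom_x TabB2.exc _ hM hc hr hg

/-- The exceptional automorphism of `F₄` in characteristic 2. -/
theorem exc_F4 [CharP K 2] (hperf : ∀ x : K, ∃ y : K, y ^ 2 = x) :
    ∃ α : ↥(chevF4.group K) ≃* ↥(chevF4.group K), ∀ {r : ℕ} {t : K} {g : ↥(chevF4.group K)}, r < chevF4.nroots →
      ((g : GL chevF4.Idx K) : Matrix chevF4.Idx chevF4.Idx K) = chevF4.x K r t →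
      ((α g : GL chevF4.Idx K) : Matrix chevF4.Idx chevF4.Idx K) = chevF4.x K (TabF4.exc.ρ r) (t ^ TabF4.exc.lam r) := by
  haveI : Fact (Nat.Prime 2) := ⟨Nat.prime_two⟩
  have hM : ∀ i j : Fin chevF4.rank, TabF4.good5.cm i j = (CoxeterMatrix.F₄) i j := by
    set_option backward.isDefEq.respectTransparency false in decide +kernel
  have hc := center_F4 (K := K)
  set α0 := TabF4.good5.excHom TabF4.exc CoxeterMatrix.F₄ hM hc with hα0
  have hs : Function.Surjective α0 := TabF4.good5.excHom_surj TabF4.exc _ hM hc (exc_perf TabF4.exc hperf)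
  have hS : IsSimpleGroup ↥(chevF4.group K) :=
    (simple_of_perfect TabF4.good3 (perfect_of_mem (D := chevF4) (by simp) (fun h => by
      rcases h with h | h <;> exact absurd (congrArg ChevalleyDatum.rank h) (by decide +kernel)))).1
  have hb : Function.Bijective α0 := bijective_of_simple α0 hs
  refine ⟨MulEquiv.ofBijective α0 hb, ?_⟩
  intro r t g hr hg
  exact TabF4.good5.excHom_x TabF4.exc _ hM hc hr hg

/-- The exceptional automorphism of `G₂` in characteristic 3. -/
theorem exc_G2 [CharP K 3] (hperf : ∀ x : K, ∃ y : K, y ^ 3 = x) :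
    ∃ α : ↥(chevG2.group K) ≃* ↥(chevG2.group K), ∀ {r : ℕ} {t : K} {g : ↥(chevG2.group K)}, r < chevG2.nroots →
      ((g : GL chevG2.Idx K) : Matrix chevG2.Idx chevG2.Idx K) = chevG2.x K r t →
      ((α g : GL chevG2.Idx K) : Matrix chevG2.Idx chevG2.Idx K) = chevG2.x K (TabG2.exc.ρ r) (t ^ TabG2.exc.lam r) := by
  haveI : Fact (Nat.Prime 3) := ⟨Nat.prime_three⟩
  have hM : ∀ i j : Fin chevG2.rank, TabG2.good5.cm i j = (CoxeterMatrix.G₂) i j := by
    set_option backward.isDefEq.respectTransparency false in decide +kernel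
  have hc := center_G2 (K := K)
  set α0 := TabG2.good5.excHom TabG2.exc CoxeterMatrix.G₂ hM hc with hα0
  have hs : Function.Surjective α0 := TabG2.good5.excHom_surj TabG2.exc _ hM hc (exc_perf TabG2.exc hperf)
  have h3 : ∃ a : K, a ≠ 0 ∧ a ≠ 1 := by
    refine ⟨-1, by simp, ?_⟩
    intro h
    have h2 : (2 : K) = 0 := by linear_combination -h
    have h3' : (3 : K) = 0 := by
      have := CharP.cast_eq_zero K 3
      simpa using this
    have : (1 : K) = 0 := by linear_combination h3' - h2
    exact one_ne_zero this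
  have hS : IsSimpleGroup ↥(chevG2.group K) :=
    (simple_of_perfect TabG2.good3 (perfect_of_mem (D := chevG2) (by simp) (fun _ => h3))).1
  have hb : Function.Bijective α0 := bijective_of_simple α0 hs
  refine ⟨MulEquiv.ofBijective α0 hb, ?_⟩
  intro r t g hr hg
  exact TabG2.good5.excHom_x TabG2.exc _ hM hc hr hg

end Cfsg.Agent.Lib.Chev
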